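import Cfsg.Agent.H665.RIM.Defs
import Cfsg.Agent.H417.PslDeg
import Cfsg.Agent.H686.SLNine
import Cfsg.Agent.Characters.Counting
import Cfsg.Agent.S0242

/-!
# S4816, row `PSL₂(q)` in cross characteristic (helper746)

`exists_faithful` : `SL₂(q)`, `q ≥ 5` odd, `p` odd, `p ∣ q - 1` or `p ∣ q + 1`: an irreducible character `χ` with
`χ(-1) = - χ(1)` and `p ∣ χ(1)`;  `nball_psl2` : `NBall p (PSL₂(F))`, `|F| ≥ 5`, `|F| ≠ 9`, `p` odd, `p ≠ char F`.
-/

set_option autoImplicit false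

namespace Cfsg.Agent.H746.RIM.Psl2

open Cfsg Cfsg.Agent.H665.RIM Cfsg.Agent.Characters Cfsg.Agent.Characters.Core
open scoped Classical

universe u

/-- central involutions act by `± 1` -/
theorem central_sign {L : Type*} [Group L] {c : L} (hc : ∀ x : L, c * x = x * c) (hc2 : c * c = 1) {θ : L → ℂ}
    (hθ : IsIrrCharacter L θ) : θ c = θ 1 ∨ θ c = - θ 1 := by
  obtain ⟨n, ρ, hρ, rfl⟩ := hθ
  obtain ⟨ω, hω⟩ := Cfsg.Agent.Blocks.ClassScalar.exists_smul_of_commute ρ hρ (ρ c) (fun g => by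
    rw [← map_mul, ← map_mul, hc])
  have h1 : ρ.character 1 = n := by
    rw [Representation.char_one, Module.finrank_fin_fun]
  have h2 : ρ.character c = ω * n := by
    show LinearMap.trace ℂ _ (ρ c) = _
    rw [hω, map_smul, LinearMap.trace_one, Module.finrank_fin_fun, smul_eq_mul]
  have h3 : (ρ c) * (ρ c) = 1 := by rw [← map_mul, hc2, map_one]
  rw [hω] at h3
  have h4 := congrArg (LinearMap.trace ℂ (Fin n → ℂ)) h3
  have h5 : (ω • (1 : Module.End ℂ (Fin n → ℂ))) * (ω • (1 : Module.End ℂ (Fin n → ℂ))) =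
      (ω * ω) • (1 : Module.End ℂ (Fin n → ℂ)) := by
    rw [smul_mul_smul_comm, one_mul]
  rw [h5, map_smul, LinearMap.trace_one, Module.finrank_fin_fun, smul_eq_mul] at h4
  rw [h1, h2]
  by_cases hn : (n : ℂ) = 0
  · left; rw [hn, mul_zero]
  · have h6 : ω * ω = 1 := mul_right_cancel₀ hn (by rw [h4, one_mul])
    rcases mul_self_eq_one_iff.1 h6 with h | h
    · left; rw [h, one_mul]
    · right; rw [h]; ring

/-- half of the order -/
theorem sum_minus {L : Type*} [Group L] [Finite L] [Fintype (IrrCharacter L)] {c : L} (hc : ∀ x : L, c * x = x * c)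
    (hc2 : c * c = 1) (hc1 : c ≠ 1) :
    2 * ∑ χ ∈ Finset.univ.filter (fun χ : IrrCharacter L => (χ : L → ℂ) c ≠ (χ : L → ℂ) 1),
      (charDegree (χ : L → ℂ)) ^ 2 = Nat.card L := by
  have h1 := Counting.sum_irr_one_mul (G := L) 1
  have h2 := Counting.sum_irr_one_mul (G := L) c
  rw [if_pos rfl] at h1
  rw [if_neg hc1] at h2
  have h3 : ∑ χ : IrrCharacter L, ((χ : L → ℂ) 1 * (χ : L → ℂ) 1 - (χ : L → ℂ) 1 * (χ : L → ℂ) c) = (Nat.card L : ℂ) := by
    rw [Finset.sum_sub_distrib, h1, h2, sub_zero]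
  have h4 : ∀ χ : IrrCharacter L, ((χ : L → ℂ) 1 * (χ : L → ℂ) 1 - (χ : L → ℂ) 1 * (χ : L → ℂ) c) =
      if (χ : L → ℂ) c ≠ (χ : L → ℂ) 1 then ((2 * (charDegree (χ : L → ℂ)) ^ 2 : ℕ) : ℂ) else 0 := by
    intro χ
    have hd := Cfsg.Agent.Blocks.Basic.irr_one_eq_charDegree χ.2
    split_ifs with h
    · rcases central_sign hc hc2 χ.2 with h5 | h5
      · exact absurd h5 h
      · rw [h5, hd]
        push_cast
        ring
    · rw [not_not] at h
      rw [h, sub_self]
  rw [Finset.sum_congr rfl fun χ _ => h4 χ, ← Finset.sum_filter, ← Nat.cast_sum, ← Finset.mul_sum] at h3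
  exact_mod_cast h3

variable {F : Type u} [Field F] [Fintype F]

local notation "SL₂" => Matrix.SpecialLinearGroup (Fin 2) F

theorem card_filter {L : Type*} [Group L] [Fintype (IrrCharacter L)] {a : ℕ} {x : ℂ} (hx : x = (a : ℂ)) {k : ℕ}
    (h : Nat.card {χ : IrrCharacter L // (χ : L → ℂ) 1 = x} = k) :
    (Finset.univ.filter (fun χ : IrrCharacter L => charDegree (χ : L → ℂ) = a)).card = k := by
  rw [← h, Nat.card_eq_fintype_card, Fintype.card_subtype]
  congr 1
  ext χ
  simp only [Finset.mem_filter, Finset.mem_univ, true_and]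
  rw [hx, Cfsg.Agent.Blocks.Basic.irr_one_eq_charDegree χ.2]
  exact Nat.cast_inj.symm

/-- the bound -/
theorem bound {L : Type*} [Group L] [Fintype (IrrCharacter L)] {c : L} {a b : ℕ}
    (h : ∀ χ : IrrCharacter L, (χ : L → ℂ) c ≠ (χ : L → ℂ) 1 → charDegree (χ : L → ℂ) = a ∨ charDegree (χ : L → ℂ) = b) :
    ∑ χ ∈ Finset.univ.filter (fun χ : IrrCharacter L => (χ : L → ℂ) c ≠ (χ : L → ℂ) 1), (charDegree (χ : L → ℂ)) ^ 2 ≤
      (Finset.univ.filter (fun χ : IrrCharacter L => charDegree (χ : L → ℂ) = a)).card * a ^ 2 +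
      (Finset.univ.filter (fun χ : IrrCharacter L => charDegree (χ : L → ℂ) = b)).card * b ^ 2 := by
  have h1 : Finset.univ.filter (fun χ : IrrCharacter L => (χ : L → ℂ) c ≠ (χ : L → ℂ) 1) ⊆
      Finset.univ.filter (fun χ : IrrCharacter L => charDegree (χ : L → ℂ) = a) ∪
      Finset.univ.filter (fun χ : IrrCharacter L => charDegree (χ : L → ℂ) = b) := by
    intro χ hχ
    simp only [Finset.mem_filter, Finset.mem_univ, true_and, Finset.mem_union] at hχ ⊢
    exact h χ hχ
  have h2 : ∀ A B : Finset (IrrCharacter L), ∑ χ ∈ A ∪ B, (charDegree (χ : L → ℂ)) ^ 2 ≤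
      ∑ χ ∈ A, (charDegree (χ : L → ℂ)) ^ 2 + ∑ χ ∈ B, (charDegree (χ : L → ℂ)) ^ 2 := by
    intro A B
    rw [← Finset.sum_union_inter]
    exact Nat.le_add_right _ _
  refine (Finset.sum_le_sum_of_subset h1).trans ((h2 _ _).trans (le_of_eq ?_))
  rw [Finset.sum_congr rfl (fun χ hχ => by rw [(Finset.mem_filter.1 hχ).2] :
      ∀ χ ∈ Finset.univ.filter (fun χ : IrrCharacter L => charDegree (χ : L → ℂ) = a), _ = a ^ 2), Finset.sum_const,
      smul_eq_mul, Finset.sum_congr rfl (fun χ hχ => by rw [(Finset.mem_filter.1 hχ).2] :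
      ∀ χ ∈ Finset.univ.filter (fun χ : IrrCharacter L => charDegree (χ : L → ℂ) = b), _ = b ^ 2), Finset.sum_const,
      smul_eq_mul]

theorem card_SL2 : Nat.card SL₂ = Fintype.card F * (Fintype.card F ^ 2 - 1) := by
  have h1 := Cfsg.Agent.S0242.result (F := F) rfl 2 (by norm_num)
  have hq : 2 ≤ Fintype.card F := Fintype.one_lt_card
  rw [Fin.prod_univ_two] at h1
  have h3 : Fintype.card F ^ 2 - Fintype.card F ^ 1 = (Fintype.card F - 1) * Fintype.card F := by
    rw [Nat.sub_mul, one_mul, pow_one, pow_two]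
  simp only [Fin.val_zero, Fin.val_one, pow_zero] at h1
  rw [h3] at h1
  have h4 : (Fintype.card F - 1) * Nat.card SL₂ =
      (Fintype.card F - 1) * (Fintype.card F * (Fintype.card F ^ 2 - 1)) := by rw [h1]; ring
  exact Nat.eq_of_mul_eq_mul_left (by omega) h4

theorem nat_dvd_half {p m : ℕ} (hp : p.Prime) (hp2 : p ≠ 2) (h : p ∣ 2 * m) : p ∣ m := by
  rcases (Nat.Prime.dvd_mul hp).1 h with h1 | h1
  · exact absurd ((Nat.prime_dvd_prime_iff_eq hp Nat.prime_two).1 h1) hp2
  · exact h1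

/-- **the faithful character** -/
theorem exists_faithful {h : ℕ} (hF : Fintype.card F = 2 * h + 1) (hh : 2 ≤ h) {p : ℕ}
    (hd : p ∣ h ∨ p ∣ h + 1) : ∃ χ : SL₂ → ℂ, IsIrrCharacter SL₂ χ ∧ χ (-1) = - χ 1 ∧ p ∣ charDegree χ := by
  have : Finite (IrrCharacter SL₂) := finite_irr
  have : Fintype (IrrCharacter SL₂) := Fintype.ofFinite _
  have hodd : Odd (Fintype.card F) := ⟨h, hF⟩
  have hchar : ringChar F ≠ 2 := by
    intro h2
    have h3 := FiniteField.even_card_of_char_two h2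
    rw [hF] at h3
    omega
  have h2F : (2 : F) ≠ 0 := Ring.two_ne_zero hchar
  have hm1 : (-1 : SL₂) ≠ 1 := by
    intro h1
    have h3 := congrArg (fun A : SL₂ => A 0 0) h1
    simp only [Matrix.SpecialLinearGroup.coe_neg, Matrix.SpecialLinearGroup.coe_one, Matrix.neg_apply,
      Matrix.one_apply_eq] at h3
    apply h2F
    linear_combination - h3
  have hc : ∀ x : SL₂, (-1) * x = x * (-1) := fun x => by rw [neg_one_mul, mul_neg_one]
  have hc2 : (-1 : SL₂) * (-1) = 1 := by rw [neg_mul_neg, one_mul]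
  have hperf : commutator SL₂ = ⊤ := TwoFusion.SLTwoFacts.commutator_eq_top (by rw [hF]; omega)
  have hcard : Nat.card SL₂ = (2 * h + 1) * ((2 * h) * (2 * h + 2)) := by
    rw [card_SL2, hF]
    congr 1
    have h1 : (2 * h + 1) ^ 2 = (2 * h) * (2 * h + 2) + 1 := by ring
    rw [h1, Nat.add_sub_cancel]
  obtain ⟨hdeg, hnum⟩ := S2299.result (F := F) hodd
  obtain ⟨-, -, hn1, hn2, hn3, hn4⟩ := hnum (by rw [hF]; omega)
  by_contra hcon
  push Not at hcon
  -- possible degrees
  have key : ∀ χ : IrrCharacter SL₂, (χ : SL₂ → ℂ) (-1) ≠ (χ : SL₂ → ℂ) 1 →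
      2 ∣ charDegree (χ : SL₂ → ℂ) ∧ ¬ p ∣ charDegree (χ : SL₂ → ℂ) := by
    intro χ hχ
    refine ⟨Cfsg.Agent.H686.SLNine.dvd_of_perfect hperf hc Nat.prime_two (by rw [pow_two, hc2]) χ.2 hχ, ?_⟩
    exact hcon χ χ.2 ((central_sign hc hc2 χ.2).resolve_left hχ)
  have hdeg' : ∀ χ : IrrCharacter SL₂, charDegree (χ : SL₂ → ℂ) = 1 ∨ charDegree (χ : SL₂ → ℂ) = 2 * h + 1 ∨
      charDegree (χ : SL₂ → ℂ) = 2 * h + 2 ∨ charDegree (χ : SL₂ → ℂ) = 2 * h ∨ charDegree (χ : SL₂ → ℂ) = h + 1 ∨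
      charDegree (χ : SL₂ → ℂ) = h := by
    intro χ
    have h1 := hdeg χ χ.2
    rw [Cfsg.Agent.Blocks.Basic.irr_one_eq_charDegree χ.2, hF] at h1
    have e1 : (2 * h + 1 + 1) / 2 = h + 1 := by omega
    have e2 : (2 * h + 1 - 1) / 2 = h := by omega
    rw [e1, e2] at h1
    rcases h1 with h1 | h1 | h1 | h1 | h1 | h1
    · left; exact_mod_cast h1
    · right; left; exact_mod_cast h1
    · right; right; left
      push_cast at h1
      have h2 : ((charDegree (χ : SL₂ → ℂ) : ℕ) : ℂ) = ((2 * h + 2 : ℕ) : ℂ) := by rw [h1]; push_cast; ring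
      exact_mod_cast h2
    · right; right; right; left
      push_cast at h1
      have h2 : ((charDegree (χ : SL₂ → ℂ) : ℕ) : ℂ) = ((2 * h : ℕ) : ℂ) := by rw [h1]; push_cast; ring
      exact_mod_cast h2
    · right; right; right; right; left; exact_mod_cast h1
    · right; right; right; right; right; exact_mod_cast h1
  have hsum := sum_minus hc hc2 hm1
  rw [hcard] at hsum
  rcases hd with hd | hd
  · -- `p ∣ q - 1`: degrees `q + 1`, `(q + 1) / 2`
    have hb := bound (L := SL₂) (c := -1) (a := 2 * h + 2) (b := h + 1) (fun χ hχ => by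
      obtain ⟨h1, h2⟩ := key χ hχ
      rcases hdeg' χ with h3 | h3 | h3 | h3 | h3 | h3
      · rw [h3] at h1; omega
      · rw [h3] at h1; omega
      · exact Or.inl h3
      · exact absurd (by rw [h3]; exact Dvd.dvd.mul_left hd 2) h2
      · exact Or.inr h3
      · exact absurd (by rw [h3]; exact hd) h2)
    rw [card_filter (a := 2 * h + 2) (by rw [hF]; push_cast; ring) hn1,
      card_filter (a := h + 1) (by rw [hF]; congr 1; omega) hn3, hF] at hb
    have e3 : (2 * h + 1 - 3) / 2 = h - 1 := by omega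
    rw [e3] at hb
    obtain ⟨k, rfl⟩ : ∃ k, h = k + 1 := ⟨h - 1, by omega⟩
    rw [Nat.add_sub_cancel] at hb
    nlinarith [hsum, hb]
  · have hb := bound (L := SL₂) (c := -1) (a := 2 * h) (b := h) (fun χ hχ => by
      obtain ⟨h1, h2⟩ := key χ hχ
      rcases hdeg' χ with h3 | h3 | h3 | h3 | h3 | h3
      · rw [h3] at h1; omega
      · rw [h3] at h1; omega
      · exact absurd (by rw [h3]; have := Dvd.dvd.mul_left hd 2; rwa [mul_add, mul_one] at this) h2
      · exact Or.inl h3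
      · exact absurd (by rw [h3]; exact hd) h2
      · exact Or.inr h3)
    rw [card_filter (a := 2 * h) (by rw [hF]; push_cast; ring) hn2,
      card_filter (a := h) (by rw [hF]; congr 1; omega) hn4, hF] at hb
    have e3 : (2 * h + 1 - 1) / 2 = h := by omega
    rw [e3] at hb
    nlinarith [hsum, hb]

omit [Fintype F] in
/-- the centre of `SL₂` -/
theorem mem_center {x : SL₂} (h : x ∈ Subgroup.center SL₂) : x = 1 ∨ x = -1 := by
  obtain ⟨r, hr, hx⟩ := Matrix.SpecialLinearGroup.mem_center_iff.1 h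
  rw [Fintype.card_fin, pow_two, mul_self_eq_one_iff] at hr
  rcases hr with rfl | rfl
  · left
    apply Subtype.ext
    rw [← hx]
    simp
  · right
    apply Subtype.ext
    rw [← hx]
    ext i j
    simp [Matrix.scalar_apply, Matrix.diagonal_apply, Matrix.one_apply]
    split_ifs <;> simp

/-- **S4816, `PSL₂(q)` in cross characteristic** -/
theorem nball_psl2 (h5 : 5 ≤ Fintype.card F) (h9 : Fintype.card F ≠ 9) {p : ℕ} (hp : p.Prime) (hp2 : p ≠ 2)
    (hpF : ¬ p ∣ Fintype.card F) (hdvd : p ∣ Nat.card (Matrix.ProjectiveSpecialLinearGroup (Fin 2) F)) :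
    NBall p (Matrix.ProjectiveSpecialLinearGroup (Fin 2) F) := by
  intro m hm _ E _ _ π hπ hker hE hcard l hl
  have hOk : H60.MultA.Ok 2 (Nat.card F) := by
    rw [Nat.card_eq_fintype_card]
    exact H417.PslDeg.ok_two h5 h9
  obtain ⟨φ, hφ, hφπ⟩ := H95.StemCover.exists_cover_of_trivial (H60.MultA.perfect_SL hOk) (H60.MultA.hasTrivial_SL hOk)
    (QuotientGroup.mk' (Subgroup.center SL₂)) (QuotientGroup.mk'_surjective _) (by rw [QuotientGroup.ker_mk']) hE π hπ hker
  have hφker : ∀ x : SL₂, φ x ∈ π.ker ↔ x ∈ Subgroup.center SL₂ := by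
    intro x
    rw [MonoidHom.mem_ker, hφπ, QuotientGroup.mk'_apply, QuotientGroup.eq_one_iff]
  have hkerE : ∀ z ∈ π.ker, z = 1 ∨ z = φ (-1) := by
    intro z hz
    obtain ⟨x, rfl⟩ := hφ z
    rcases mem_center ((hφker x).1 hz) with h | h
    · left; rw [h, map_one]
    · right; rw [h]
  have hm1c : (-1 : SL₂) ∈ Subgroup.center SL₂ := by
    rw [Subgroup.mem_center_iff]
    intro g
    rw [mul_neg_one, neg_one_mul]
  have hck : φ (-1) ∈ π.ker := (hφker _).2 hm1c
  have hc1 : φ (-1) ≠ 1 := by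
    intro h1
    have h2 : π.ker = ⊥ := by
      rw [eq_bot_iff]
      intro z hz
      rcases hkerE z hz with h | h
      · exact h
      · rw [h, h1]; exact one_mem _
    rw [h2, Subgroup.card_bot] at hcard
    omega
  have hinj : Function.Injective φ := by
    rw [← MonoidHom.ker_eq_bot_iff, eq_bot_iff]
    intro x hx
    have h1 : φ x = 1 := hx
    rcases mem_center ((hφker x).1 (by rw [h1]; exact one_mem _)) with h | h
    · exact h
    · rw [h] at h1
      exact absurd h1 hc1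
  -- `q` is odd
  have hodd : Odd (Fintype.card F) := by
    rw [← Nat.not_even_iff_odd]
    intro he
    have h2 : ringChar F = 2 := by
      by_contra h2
      have := FiniteField.odd_card_of_char_ne_two h2
      exact absurd he (Nat.not_even_iff_odd.2 (by rw [Nat.odd_iff]; exact this))
    have h3 : (-1 : SL₂) = 1 := by
      have hc : CharP F 2 := by rw [← h2]; exact ringChar.charP F
      apply Subtype.ext
      ext i j
      simp only [Matrix.SpecialLinearGroup.coe_neg, Matrix.SpecialLinearGroup.coe_one, Matrix.neg_apply]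
      rw [CharTwo.neg_eq]
    exact hc1 (by rw [h3, map_one])
  obtain ⟨h, hh⟩ := hodd
  have hd : p ∣ h ∨ p ∣ h + 1 := by
    have h1 : p ∣ Nat.card SL₂ := hdvd.trans (Subgroup.card_quotient_dvd_card _)
    rw [card_SL2, hh] at h1
    have h2 : (2 * h + 1) ^ 2 - 1 = (2 * h) * (2 * (h + 1)) := by
      have h1 : (2 * h + 1) ^ 2 = (2 * h) * (2 * (h + 1)) + 1 := by ring
      rw [h1, Nat.add_sub_cancel]
    rw [h2] at h1
    rcases (Nat.Prime.dvd_mul hp).1 h1 with h3 | h3
    · rw [← hh] at h3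
      exact absurd h3 hpF
    · rcases (Nat.Prime.dvd_mul hp).1 h3 with h4 | h4
      · exact Or.inl (nat_dvd_half hp hp2 h4)
      · exact Or.inr (nat_dvd_half hp hp2 h4)
  obtain ⟨χ, hχ, hχ1, hχp⟩ := exists_faithful hh (by omega) hd
  let e : SL₂ ≃* E := MulEquiv.ofBijective φ ⟨hinj, hφ⟩
  have he : ∀ x, e x = φ x := fun x => rfl
  refine ⟨χ ∘ e.symm, isIrr_comp e.symm.toMonoidHom e.symm.surjective hχ, ?_, ?_⟩
  · rintro ⟨z, hz⟩
    rcases hkerE z hz with h1 | h1
    · subst h1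
      have h2 : l ⟨1, hz⟩ = 1 := map_one l
      rw [h2]
      simp
    · subst h1
      have h2 : l ⟨φ (-1), hz⟩ * l ⟨φ (-1), hz⟩ = 1 := by
        rw [← map_mul, ← map_one l]
        congr 1
        apply Subtype.ext
        change φ (-1) * φ (-1) = 1
        rw [← map_mul, neg_mul_neg, one_mul, map_one]
      have h3 : l ⟨φ (-1), hz⟩ ≠ 1 := by
        intro h4
        rw [← map_one l] at h4
        exact hc1 (congrArg Subtype.val (hl h4))
      have h4 : ((l ⟨φ (-1), hz⟩ : ℂˣ) : ℂ) = -1 := by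
        have h5 : ((l ⟨φ (-1), hz⟩ : ℂˣ) : ℂ) * ((l ⟨φ (-1), hz⟩ : ℂˣ) : ℂ) = 1 := by
          rw [← Units.val_mul, h2, Units.val_one]
        rcases mul_self_eq_one_iff.1 h5 with h6 | h6
        · exact absurd (Units.ext h6) h3
        · exact h6
      rw [h4]
      change χ (e.symm (φ (-1))) = χ (e.symm 1) * (-1)
      rw [map_one, ← he, MulEquiv.symm_apply_apply, hχ1]
      ring
  · have h1 : charDegree (χ ∘ e.symm) = charDegree χ := by
      have h2 := Cfsg.Agent.Blocks.Basic.irr_one_eq_charDegree (isIrr_comp e.symm.toMonoidHom e.symm.surjective hχ)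
      have h3 := Cfsg.Agent.Blocks.Basic.irr_one_eq_charDegree hχ
      have h4 : (χ ∘ e.symm.toMonoidHom) 1 = χ 1 := by
        change χ (e.symm 1) = χ 1
        rw [map_one]
      rw [h4, h3] at h2
      exact (Nat.cast_inj.1 h2).symm
    rw [h1]
    exact hχp

end Cfsg.Agent.H746.RIM.Psl2
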